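import Cfsg.Agent.H930.FC.Spin
import Cfsg.Agent.H446.FC.V7

/-!
# `F₄(q)`, `q` odd: the box `OB3` (S2464)
-/

set_option autoImplicit false

namespace Cfsg.Agent.H930.FC

open Cfsg.Agent.ChevalleyStructure.CoxeterGeom Cfsg.Agent.Nodes.BNOf Cfsg.Agent.Nodes.StabComb
  Cfsg.Agent.Nodes.RGDChev Cfsg.Agent.KFacts.RgdChevCoord
open Cfsg.Lie
open Cfsg.Agent.H701.F43.Cent (hF cF)
open Cfsg.Agent.H520.FC

universe u

/-- **The box `OB3`.** -/
theorem ob3 {K : Type u} [Field K] [Finite K] (h2 : (2 : K) ≠ 0) : OB3 K := by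
  intro u hu hl
  by_cases h : u ∈ RGD.Sup (XX chevF4 4 K) {x | x ∈ NotJ cF hF.isCartan {k | k ≠ 0} ∧ 2 ≤ x 0}
  · exact Cfsg.Agent.H446.FC.ob3_v7 h2 h hl
  · refine le_trans ?_ (le_trans (spin hu h) (Nat.le_mul_of_pos_left _ (by norm_num)))
    have h1 : Nat.card K - 1 ≤ Nat.card K := Nat.sub_le _ _
    calc (Nat.card K - 1) ^ 2 * Nat.card K ^ 5 = (Nat.card K - 1) * ((Nat.card K - 1) * Nat.card K ^ 5) := by ring
      _ ≤ (Nat.card K - 1) * (Nat.card K * Nat.card K ^ 5) :=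
        Nat.mul_le_mul_left _ (Nat.mul_le_mul_right _ h1)
      _ = (Nat.card K - 1) * Nat.card K ^ 6 := by ring

end Cfsg.Agent.H930.FC
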